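import Cfsg.Agent.H95.QdGroup
import Cfsg.Agent.H35.ThompsonA
import Cfsg.Agent.H72.ThompsonA
import Cfsg.Agent.H19.Cores
import Cfsg.Agent.H19.Misc
import Cfsg.Prelude.Def_LocalEven

/-!
A copy of `Qd(p)`: it is not `p`-stable and the centre of the Thompson subgroup of a Sylow subgroup
does not control strong fusion in it.
-/

set_option autoImplicit false

namespace Cfsg.Agent.H72.QdModel

open Matrix Cfsg.Agent.H95
set_option linter.style.haveILetI false
open scoped commutatorElement

variable {p : ℕ} [hp : Fact p.Prime] {X : Type*} [Group X] (e : ↥(Cfsg.qd p) ≃* X)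

/-- The translations. -/
def tr : Plane p →* X := e.toMonoidHom.comp translation

/-- The linear part. -/
def li : SL2 p →* X := e.toMonoidHom.comp linearPart

/-- Upper unitriangular matrices. -/
def up : Multiplicative (ZMod p) →* SL2 p where
  toFun x := ⟨!![1, x.toAdd; 0, 1], by simp [Matrix.det_fin_two]⟩
  map_one' := Subtype.ext (by simp [Matrix.one_fin_two])
  map_mul' x y := Subtype.ext (by show _ = (_ : Matrix (Fin 2) (Fin 2) (ZMod p)) * _; simp [Matrix.mul_fin_two, add_comm])

@[simp] theorem coe_up (x : Multiplicative (ZMod p)) :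
    (up x : Matrix (Fin 2) (Fin 2) (ZMod p)) = !![1, x.toAdd; 0, 1] := rfl

/-- Lower unitriangular matrices. -/
def low (x : ZMod p) : SL2 p := ⟨!![1, 0; x, 1], by simp [Matrix.det_fin_two]⟩

/-- The point `(a, b)` of the plane. -/
def pt (a b : ZMod p) : Plane p := Multiplicative.ofAdd ![a, b]

theorem eq_pt (v : Plane p) : v = pt (v.toAdd 0) (v.toAdd 1) := by
  apply Multiplicative.toAdd.injective
  ext i; fin_cases i <;> simp [pt]

theorem act_up (x a b : ZMod p) :
    act (up (Multiplicative.ofAdd x)) (pt a b) = pt (a + x * b) b := by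
  apply Multiplicative.toAdd.injective
  ext i; fin_cases i <;> simp [act, pt, mul_comm]

theorem act_low (x a b : ZMod p) : act (low x) (pt a b) = pt a (x * a + b) := by
  apply Multiplicative.toAdd.injective
  ext i; fin_cases i <;> simp [act, low, pt, mul_comm]

theorem pt_mul (a b c d : ZMod p) : pt a b * pt c d = pt (a + c) (b + d) := by
  apply Multiplicative.toAdd.injective
  ext i; fin_cases i <;> simp [pt]

/-- An invariant non-trivial subgroup of the plane is everything. -/
theorem eq_top_of_invariant (W : Subgroup (Plane p)) (hW : ∀ A, ∀ v ∈ W, act A v ∈ W)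
    {v : Plane p} (hv : v ∈ W) (hv1 : v ≠ 1) : W = ⊤ := by
  rw [eq_pt v] at hv hv1
  set a := v.toAdd 0
  set b := v.toAdd 1
  have hdiff : ∀ (A : SL2 p) (u : Plane p), u ∈ W → act A u * u⁻¹ ∈ W :=
    fun A u hu => mul_mem (hW A u hu) (inv_mem hu)
  have h0 : ∀ x, b ≠ 0 → pt x 0 ∈ W := by
    intro x hb
    have := hdiff (up (Multiplicative.ofAdd (x / b))) _ hv
    rwa [act_up, mul_inv_eq_iff_eq_mul.2 (show pt (a + x / b * b) b = pt x 0 * pt a b by
      rw [pt_mul, zero_add, div_mul_cancel₀ _ hb, add_comm])] at this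
  have h1 : ∀ (c : ZMod p), c ≠ 0 → ∀ d, pt c d ∈ W → ∀ y, pt 0 y ∈ W := by
    intro c hc d hcd y
    have := hdiff (low (y / c)) _ hcd
    rwa [act_low, mul_inv_eq_iff_eq_mul.2 (show pt c (y / c * c + d) = pt 0 y * pt c d by
      rw [pt_mul, zero_add, div_mul_cancel₀ _ hc])] at this
  have hy : ∀ y, pt 0 y ∈ W := by
    rcases eq_or_ne b 0 with hb | hb
    · refine h1 a (fun ha => hv1 ?_) b hv
      rw [ha, hb]
      apply Multiplicative.toAdd.injective
      ext i; fin_cases i <;> simp [pt]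
    · exact h1 1 one_ne_zero 0 (h0 1 hb)
  have hx : ∀ x, pt x 0 ∈ W := by
    intro x
    have := hdiff (up (Multiplicative.ofAdd x)) _ (hy 1)
    rwa [act_up, mul_inv_eq_iff_eq_mul.2 (show pt (0 + x * 1) 1 = pt x 0 * pt 0 1 by
      rw [pt_mul, mul_one, zero_add, zero_add, add_zero])] at this
  rw [eq_top_iff]
  intro u _
  rw [eq_pt u, show pt (u.toAdd 0) (u.toAdd 1) = pt (u.toAdd 0) 0 * pt 0 (u.toAdd 1) by
    rw [pt_mul, add_zero, zero_add]]
  exact mul_mem (hx _) (hy _)

theorem exists_eq_mul (x : X) : ∃ A v, x = tr e v * li e A := by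
  obtain ⟨A, v, h⟩ := qd_eq_mul (e.symm x)
  exact ⟨A, v, by rw [← e.apply_symm_apply x, h, map_mul]; rfl⟩

theorem li_tr (A : SL2 p) (v : Plane p) : li e A * tr e v = tr e (act A v) * li e A := by
  simp only [li, tr, MonoidHom.comp_apply, ← map_mul, linearPart_translation]

theorem li_tr_inv (A : SL2 p) (v : Plane p) : li e A * tr e v * (li e A)⁻¹ = tr e (act A v) := by
  rw [li_tr, mul_inv_cancel_right]

theorem tr_injective : Function.Injective (tr e) := e.injective.comp translation_injective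

theorem li_eq_one_of_eq_tr {A : SL2 p} {v : Plane p} (h : li e A = tr e v) : A = 1 :=
  (affMat_inj (congrArg Subtype.val (e.injective h : linearPart A = translation v))).1

theorem range_normal : (tr e).range.Normal := by
  refine ⟨?_⟩
  rintro _ ⟨w, rfl⟩ x
  obtain ⟨A, v, rfl⟩ := exists_eq_mul e x
  refine ⟨act A w, ?_⟩
  calc tr e (act A w) = tr e (v * act A w * v⁻¹) := by rw [mul_comm v, mul_inv_cancel_right]
    _ = tr e v * (li e A * tr e w * (li e A)⁻¹) * (tr e v)⁻¹ := by
      rw [li_tr_inv, map_mul, map_mul, map_inv]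
    _ = _ := by group

theorem range_isPGroup : IsPGroup p (tr e).range := by
  rintro ⟨_, v, rfl⟩
  refine ⟨1, Subtype.ext ?_⟩
  show tr e v ^ p ^ 1 = 1
  rw [pow_one, ← map_pow, plane_pow_eq_one, map_one]

theorem centralizer_le : Subgroup.centralizer ((tr e).range : Set X) ≤ (tr e).range := by
  intro x hx
  obtain ⟨A, v, rfl⟩ := exists_eq_mul e x
  have hA : A = 1 := act_faithful fun w => by
    rw [act_one]
    apply tr_injective e
    have h := Subgroup.mem_centralizer_iff.1 hx (tr e w) ⟨w, rfl⟩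
    rw [mul_assoc (tr e v), li_tr, ← mul_assoc, ← mul_assoc, ← map_mul, ← map_mul, mul_comm w v,
      map_mul, map_mul] at h
    exact (mul_left_cancel (mul_right_cancel h)).symm
  rw [hA, map_one, mul_one]
  exact ⟨v, rfl⟩

theorem range_ne_bot : (tr e).range ≠ ⊥ := by
  obtain ⟨v, hv⟩ := plane_nontrivial (p := p)
  intro h
  have : tr e v ∈ (tr e).range := ⟨v, rfl⟩
  rw [h, Subgroup.mem_bot] at this
  exact hv (tr_injective e (this.trans (map_one _).symm))

/-- A non-trivial invariant subgroup of the translations is all of them. -/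
theorem range_le_of_normal (Z : Subgroup X) [Z.Normal] (hZ : Z ≤ (tr e).range) (hne : Z ≠ ⊥) :
    (tr e).range ≤ Z := by
  obtain ⟨z, hz, hz1⟩ := (Subgroup.bot_or_exists_ne_one Z).resolve_left hne
  obtain ⟨v, rfl⟩ := hZ hz
  have htop := eq_top_of_invariant (Z.comap (tr e)) (fun A w hw => by
    rw [Subgroup.mem_comap, ← li_tr_inv]
    exact Subgroup.Normal.conj_mem ‹Z.Normal› _ hw _) (v := v) hz
    (fun h => hz1 (by rw [h, map_one]))
  rintro _ ⟨w, rfl⟩
  exact Subgroup.mem_comap.1 (htop ▸ Subgroup.mem_top w : w ∈ Z.comap (tr e))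

theorem pCore_le [Finite X] : Cfsg.pCore p X ≤ (tr e).range := by
  set N := Cfsg.pCore p X
  set V := (tr e).range
  haveI hVn : V.Normal := range_normal e
  haveI hNn : N.Normal := H19.pCore_normal p X
  have hN : IsPGroup p N := H19.pCore_isPGroup p
  have hVN : V ≤ N := H19.le_pCore hVn (range_isPGroup e)
  haveI : Group.IsNilpotent N := hN.isNilpotent
  haveI : (V.subgroupOf N).Normal := Subgroup.normal_subgroupOf
  have h := H19.inf_center_ne_bot (V.subgroupOf N) (fun h => range_ne_bot e (by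
    have h1 := congrArg (Subgroup.map N.subtype) h
    rwa [Subgroup.map_subgroupOf_eq_of_le hVN, Subgroup.map_bot] at h1))
  obtain ⟨z, hz, hz1⟩ := (Subgroup.bot_or_exists_ne_one _).resolve_left h
  have hne : V ⊓ Subgroup.centralizer (N : Set X) ≠ ⊥ := fun h0 => hz1 (Subtype.ext (by
    have hm : (z : X) ∈ V ⊓ Subgroup.centralizer (N : Set X) :=
      ⟨hz.1, Subgroup.mem_centralizer_iff.2 fun n hn =>
        congrArg Subtype.val (Subgroup.mem_center_iff.1 hz.2 ⟨n, hn⟩)⟩
    rw [h0, Subgroup.mem_bot] at hm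
    exact hm))
  have hle : V ≤ Subgroup.centralizer (N : Set X) :=
    (range_le_of_normal e _ inf_le_left hne).trans inf_le_right
  exact (Subgroup.le_centralizer_iff.1 hle).trans (centralizer_le e)

include e in
theorem not_isNormalizerPStable [Finite X] : ¬ Cfsg.IsNormalizerPStable p X := by
  intro hst
  set V := (tr e).range with hV
  haveI hVn : V.Normal := range_normal e
  set g := li e (up (Multiplicative.ofAdd 1)) with hg
  have hgN : g ∈ Subgroup.normalizer (V : Set X) := by
    rw [Subgroup.normalizer_eq_top_iff.2 hVn]; trivial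
  have hquad : ⁅⁅V, Subgroup.zpowers g⁆, Subgroup.zpowers g⁆ = ⊥ := by
    rw [Subgroup.commutator_eq_bot_iff_le_centralizer]
    refine Subgroup.commutator_le.2 ?_
    rintro _ ⟨v, rfl⟩ _ ⟨k, rfl⟩
    rw [Subgroup.mem_centralizer_iff]
    rintro _ ⟨l, rfl⟩
    simp only [hg, ← map_zpow]
    obtain ⟨x, hx⟩ : ∃ x, (Multiplicative.ofAdd (1 : ZMod p)) ^ k = Multiplicative.ofAdd x :=
      ⟨_, (ofAdd_toAdd _).symm⟩
    obtain ⟨y, hy⟩ : ∃ y, (Multiplicative.ofAdd (1 : ZMod p)) ^ l = Multiplicative.ofAdd y :=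
      ⟨_, (ofAdd_toAdd _).symm⟩
    rw [hx, hy]
    set w := v * (act (up (Multiplicative.ofAdd x)) v)⁻¹ with hw
    have hc : ⁅tr e v, li e (up (Multiplicative.ofAdd x))⁆ = tr e w := by
      rw [hw, map_mul, map_inv, ← li_tr_inv, commutatorElement_def]; group
    have hfix : act (up (Multiplicative.ofAdd y)) w = w := by
      obtain ⟨a, b, rfl⟩ : ∃ a b, v = pt a b := ⟨_, _, eq_pt v⟩
      have hw0 : w = pt (-(x * b)) 0 := by
        rw [hw, mul_inv_eq_iff_eq_mul, act_up, pt_mul, zero_add]
        congr 1; ring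
      rw [hw0, act_up, mul_zero, add_zero]
    rw [hc, li_tr, hfix]
  have h := hst V (range_isPGroup e) g hgN hquad
  set N := Subgroup.normalizer (V : Set X) with hN
  haveI : ((Subgroup.centralizer (V : Set X)).subgroupOf N).Normal := inferInstance
  set q := QuotientGroup.mk' ((Subgroup.centralizer (V : Set X)).subgroupOf N) with hq
  set D := ((Cfsg.pCore p (↥N ⧸ (Subgroup.centralizer (V : Set X)).subgroupOf N)).comap q).map
    N.subtype with hD
  have hsurj : Function.Surjective N.subtype := fun x =>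
    ⟨⟨x, by rw [hN, Subgroup.normalizer_eq_top_iff.2 hVn]; trivial⟩, rfl⟩
  have hDn : D.Normal := by
    haveI := H19.pCore_normal p (↥N ⧸ (Subgroup.centralizer (V : Set X)).subgroupOf N)
    exact Subgroup.Normal.map inferInstance _ hsurj
  have hDp : IsPGroup p D := by
    refine IsPGroup.map ((H19.pCore_isPGroup p).comap_of_ker_isPGroup q ?_) _
    rw [hq, QuotientGroup.ker_mk']
    exact ((range_isPGroup e).to_le (centralizer_le e)).comap_of_injective N.subtype
      N.subtype_injective
  have hgD : g ∈ D := ⟨⟨g, hgN⟩, h, rfl⟩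
  obtain ⟨v, hv⟩ := pCore_le e (H19.le_pCore hDn hDp hgD)
  have h1 := congrArg (fun A : SL2 p => (A : Matrix (Fin 2) (Fin 2) (ZMod p)) 0 1)
    (li_eq_one_of_eq_tr e hv.symm)
  simp at h1

include e in
theorem exists_not_controls [Finite X] :
    ∃ T : Sylow p X, ¬ Cfsg.ControlsStrongFusion p (Cfsg.centerThompsonAOf (T : Subgroup X)) := by
  set V := (tr e).range with hV
  haveI hVn : V.Normal := range_normal e
  -- an abelian subgroup of order `p ^ 2` outside `V`
  let f : Plane p →* X :=
    { toFun := fun v => tr e (pt (v.toAdd 0) 0) * li e (up (Multiplicative.ofAdd (v.toAdd 1)))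
      map_one' := by
        rw [show pt ((1 : Plane p).toAdd 0) 0 = 1 from ((eq_pt 1).trans (by simp)).symm]
        simp
      map_mul' := fun v w => by
        have h1 : li e (up (Multiplicative.ofAdd (v.toAdd 1))) * tr e (pt (w.toAdd 0) 0) =
            tr e (pt (w.toAdd 0) 0) * li e (up (Multiplicative.ofAdd (v.toAdd 1))) := by
          rw [li_tr, act_up, mul_zero, add_zero]
        rw [mul_assoc (tr e (pt (v.toAdd 0) 0)), ← mul_assoc (li e _), h1, mul_assoc (tr e _) (li e _),
          ← mul_assoc, ← map_mul, ← map_mul, pt_mul, ← map_mul, ← ofAdd_add]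
        simp }
  have hfi : Function.Injective f := by
    refine (injective_iff_map_eq_one f).2 fun v hv => ?_
    have h1 : li e (up (Multiplicative.ofAdd (v.toAdd 1))) = tr e (pt (v.toAdd 0) 0)⁻¹ := by
      rw [map_inv]; exact eq_inv_of_mul_eq_one_right hv
    have h2 := li_eq_one_of_eq_tr e h1
    have h3 : v.toAdd 1 = 0 := by
      simpa using congrArg (fun A : SL2 p => (A : Matrix (Fin 2) (Fin 2) (ZMod p)) 0 1) h2
    rw [h2, map_one, eq_comm, ← map_one (tr e)] at h1
    have h4 := inv_eq_one.1 (tr_injective e h1)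
    rw [eq_pt v, h3]
    exact h4
  have hfp : IsPGroup p f.range := by
    rintro ⟨_, v, rfl⟩
    exact ⟨1, Subtype.ext (by show f v ^ p ^ 1 = 1; rw [pow_one, ← map_pow, plane_pow_eq_one, map_one])⟩
  obtain ⟨T, hT⟩ := hfp.exists_le_sylow
  refine ⟨T, fun hctl => ?_⟩
  set Z := Cfsg.centerThompsonAOf (T : Subgroup X) with hZ
  have hVle : ∀ S : Sylow p X, V ≤ (S : Subgroup X) := fun S =>
    (H19.le_pCore hVn (range_isPGroup e)).trans (H19.pCore_le_sylow S)
  have hTN : (T : Subgroup X) ≤ Subgroup.normalizer (Z : Set X) :=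
    Subgroup.le_normalizer.trans (H35.normalizer_le_normalizer_centerThompsonAOf _)
  haveI hZn : Z.Normal := by
    rw [← Subgroup.normalizer_eq_top_iff, eq_top_iff]
    intro g _
    obtain ⟨S, -, hS⟩ := hctl
    obtain ⟨-, hg⟩ := hS (V : Set X) (hVle S)
    obtain ⟨x, hx, hxe⟩ := hg g (by
      rintro _ ⟨v, hv, rfl⟩; exact hVle S (hVn.conj_mem v hv g))
    have h1 : x⁻¹ * g ∈ V := centralizer_le e (Subgroup.mem_centralizer_iff.2 fun v hv => by
      have h := hxe v hv
      calc v * (x⁻¹ * g) = x⁻¹ * (x * v * x⁻¹) * g := by group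
        _ = x⁻¹ * g * v := by rw [← h]; group)
    have h2 := mul_mem hx (hTN (hVle T h1))
    rwa [mul_inv_cancel_left] at h2
  have hTne : (T : Subgroup X) ≠ ⊥ := fun h => range_ne_bot e (le_bot_iff.1 (h ▸ hVle T))
  have hZV : Z ≤ V := (H19.le_pCore hZn (T.2.to_le (H35.centerThompsonAOf_le _))).trans (pCore_le e)
  have hVZ : V ≤ Z := range_le_of_normal e Z hZV (H35.centerThompsonAOf_ne_bot T.2 hTne)
  have hJV : Cfsg.thompsonSubgroupAOf (T : Subgroup X) ≤ V :=
    (Subgroup.le_centralizer_iff.1 (hVZ.trans inf_le_right)).trans (centralizer_le e)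
  obtain ⟨A, hA⟩ := exists_isMaxAb (T : Subgroup X)
  have hVcard : Nat.card V ≤ Nat.card f.range := by
    refine le_of_eq ?_
    rw [← Nat.card_congr (MonoidHom.ofInjective (tr_injective e)).toEquiv,
      ← Nat.card_congr (MonoidHom.ofInjective hfi).toEquiv]
  have hmax : IsMaxAb (T : Subgroup X) f.range := by
    refine ⟨hT, ?_, fun B hB hBc => (hA.2.2 B hB hBc).trans
      ((Subgroup.card_le_of_le (hA.le_thompson.trans hJV)).trans hVcard)⟩
    rintro _ ⟨a, rfl⟩ _ ⟨b, rfl⟩
    exact (Commute.all a b).map f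
  obtain ⟨w, hw⟩ := hJV (hmax.le_thompson ⟨pt 0 1, rfl⟩)
  have h1 : li e (up (Multiplicative.ofAdd (1 : ZMod p))) = tr e ((pt 0 0)⁻¹ * w) := by
    rw [map_mul, map_inv, hw]
    show _ = (tr e (pt 0 0))⁻¹ * (tr e (pt _ 0) * li e _)
    simp [pt, ← mul_assoc]
  have h2 := congrArg (fun A : SL2 p => (A : Matrix (Fin 2) (Fin 2) (ZMod p)) 0 1)
    (li_eq_one_of_eq_tr e h1)
  simp at h2

end Cfsg.Agent.H72.QdModel
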