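import Cfsg.Agent.H1.SylowTwoDim
import Cfsg.Agent.H19.Cores
import Cfsg.Prelude.Def_LocalEven
import Mathlib

/-! The group `Qd` over a field: translations and linear part. -/

set_option autoImplicit false

namespace Cfsg.Agent.H72.QdOver

open Cfsg.Agent Matrix

variable {F : Type*} [Field F]


/-- The entries of an element. -/
def ent (M : ↥(Cfsg.qdOver F)) : Matrix (Fin 3) (Fin 3) F :=
  ((M : Matrix.SpecialLinearGroup (Fin 3) F) : Matrix (Fin 3) (Fin 3) F)

theorem ext_ent {M N : ↥(Cfsg.qdOver F)} (h : ent M = ent N) : M = N := Subtype.ext (Subtype.ext h)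

theorem ent_mul (M N : ↥(Cfsg.qdOver F)) : ent (M * N) = ent M * ent N := rfl

theorem ent_one : ent (1 : ↥(Cfsg.qdOver F)) = 1 := rfl

/-- The shape of the elements. -/
def rows : Subgroup (Matrix.SpecialLinearGroup (Fin 3) F) where
  carrier := {M | (M : Matrix (Fin 3) (Fin 3) F) 2 0 = 0 ∧ (M : Matrix (Fin 3) (Fin 3) F) 2 1 = 0 ∧
    (M : Matrix (Fin 3) (Fin 3) F) 2 2 = 1}
  mul_mem' {a b} ha hb := by
    simp only [Set.mem_setOf_eq] at ha hb ⊢
    simp [Matrix.mul_apply, Fin.sum_univ_three, ha.1, ha.2.1, ha.2.2, hb.1, hb.2.1, hb.2.2]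
  one_mem' := by simp
  inv_mem' {a} ha := by
    simp only [Set.mem_setOf_eq] at ha ⊢
    rw [Matrix.SpecialLinearGroup.coe_inv, Matrix.adjugate_fin_three]
    have hd : (a : Matrix (Fin 3) (Fin 3) F).det = 1 := a.2
    rw [Matrix.det_fin_three, ha.1, ha.2.1, ha.2.2] at hd
    simp [ha.1, ha.2.1]
    linear_combination hd

theorem row (M : ↥(Cfsg.qdOver F)) : ent M 2 0 = 0 ∧ ent M 2 1 = 0 ∧ ent M 2 2 = 1 :=
  (show Cfsg.qdOver F ≤ rows from (Subgroup.closure_le _).2 fun _ h => h) M.2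

/-- An element from its linear part and translation part. -/
def mk (A : (Matrix.SpecialLinearGroup (Fin 2) F)) (w : Fin 2 → F) : ↥(Cfsg.qdOver F) :=
  ⟨⟨!![(A : Matrix (Fin 2) (Fin 2) F) 0 0, (A : Matrix (Fin 2) (Fin 2) F) 0 1, w 0;
      (A : Matrix (Fin 2) (Fin 2) F) 1 0, (A : Matrix (Fin 2) (Fin 2) F) 1 1, w 1; 0, 0, 1], by
    have h : (A : Matrix (Fin 2) (Fin 2) F).det = 1 := A.2
    rw [Matrix.det_fin_two] at h
    simp [Matrix.det_fin_three, h]⟩, Subgroup.subset_closure ⟨rfl, rfl, rfl⟩⟩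

theorem ent_mk (A : (Matrix.SpecialLinearGroup (Fin 2) F)) (w : Fin 2 → F) :
    ent (mk A w) = !![(A : Matrix (Fin 2) (Fin 2) F) 0 0, (A : Matrix (Fin 2) (Fin 2) F) 0 1, w 0;
      (A : Matrix (Fin 2) (Fin 2) F) 1 0, (A : Matrix (Fin 2) (Fin 2) F) 1 1, w 1; 0, 0, 1] := rfl

theorem mk_mul (A B : (Matrix.SpecialLinearGroup (Fin 2) F)) (v w : Fin 2 → F) :
    mk A v * mk B w = mk (A * B) ((A : Matrix (Fin 2) (Fin 2) F).mulVec w + v) := by
  apply ext_ent
  ext i j
  fin_cases i <;> fin_cases j <;>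
    simp [ent_mul, ent_mk, Matrix.mul_apply, Fin.sum_univ_three, Fin.sum_univ_two, Matrix.mulVec,
      dotProduct, Matrix.vecHead, Matrix.vecTail]

theorem mk_one_zero : mk (1 : (Matrix.SpecialLinearGroup (Fin 2) F)) 0 = 1 := by
  apply ext_ent
  ext i j
  fin_cases i <;> fin_cases j <;> simp [ent_mk, ent_one]

/-- Every element is a `mk`. -/
theorem exists_mk (M : ↥(Cfsg.qdOver F)) : ∃ A w, M = mk A w := by
  have hd : (ent M).det = 1 := (M : Matrix.SpecialLinearGroup (Fin 3) F).2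
  obtain ⟨h0, h1, h2⟩ := row M
  rw [Matrix.det_fin_three, h0, h1, h2] at hd
  refine ⟨⟨!![ent M 0 0, ent M 0 1; ent M 1 0, ent M 1 1], by
    rw [Matrix.det_fin_two_of]; linear_combination hd⟩, ![ent M 0 2, ent M 1 2], ?_⟩
  apply ext_ent
  ext i j
  fin_cases i <;> fin_cases j <;> first | rfl | exact h0 | exact h1 | exact h2

theorem mk_inj {A B : (Matrix.SpecialLinearGroup (Fin 2) F)} {v w : Fin 2 → F} (h : mk A v = mk B w) : A = B ∧ v = w := by
  have h' : ∀ i j, ent (mk A v) i j = ent (mk B w) i j := by rw [h]; exact fun _ _ => rfl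
  refine ⟨Subtype.ext ?_, ?_⟩
  · ext i j
    fin_cases i <;> fin_cases j
    · simpa [ent_mk] using h' 0 0
    · simpa [ent_mk] using h' 0 1
    · simpa [ent_mk] using h' 1 0
    · simpa [ent_mk] using h' 1 1
  · ext i
    fin_cases i
    · simpa [ent_mk] using h' 0 2
    · simpa [ent_mk] using h' 1 2

/-- The linear part. -/
noncomputable def lpart (M : ↥(Cfsg.qdOver F)) : (Matrix.SpecialLinearGroup (Fin 2) F) := (exists_mk M).choose

theorem lpart_mk (A : (Matrix.SpecialLinearGroup (Fin 2) F)) (w : Fin 2 → F) : lpart (mk A w) = A := by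
  obtain ⟨v, hv⟩ := (exists_mk (mk A w)).choose_spec
  exact (mk_inj hv).1.symm

/-- The projection on the linear part. -/
noncomputable def proj : ↥(Cfsg.qdOver F) →* (Matrix.SpecialLinearGroup (Fin 2) F) := MonoidHom.mk' lpart fun M N => by
  obtain ⟨A, v, rfl⟩ := exists_mk M
  obtain ⟨B, w, rfl⟩ := exists_mk N
  rw [mk_mul, lpart_mk, lpart_mk, lpart_mk]

theorem proj_mk (A : (Matrix.SpecialLinearGroup (Fin 2) F)) (w : Fin 2 → F) : proj (mk A w) = A := lpart_mk A w

/-- The linear subgroup. -/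
def lin : (Matrix.SpecialLinearGroup (Fin 2) F) →* ↥(Cfsg.qdOver F) := MonoidHom.mk' (fun A => mk A 0) fun A B => by
  rw [mk_mul, Matrix.mulVec_zero, add_zero]

/-- The translations. -/
def trans : Multiplicative (Fin 2 → F) →* ↥(Cfsg.qdOver F) :=
  MonoidHom.mk' (fun w => mk 1 w.toAdd) fun v w => by
    rw [mk_mul, mul_one]
    congr 1
    show _ = Matrix.mulVec 1 _ + _
    rw [Matrix.one_mulVec, add_comm]; rfl

theorem lin_trans (A : (Matrix.SpecialLinearGroup (Fin 2) F)) (w : Fin 2 → F) :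
    lin A * trans (Multiplicative.ofAdd w) * (lin A)⁻¹ =
      trans (Multiplicative.ofAdd ((A : Matrix (Fin 2) (Fin 2) F).mulVec w)) := by
  rw [mul_inv_eq_iff_eq_mul]
  show mk A 0 * mk 1 w = mk 1 ((A : Matrix (Fin 2) (Fin 2) F).mulVec w) * mk A 0
  rw [mk_mul, mk_mul, mul_one, one_mul]
  congr 1
  rw [add_zero, Matrix.mulVec_zero, zero_add]

theorem mem_ker_proj {M : ↥(Cfsg.qdOver F)} : M ∈ (proj (F := F)).ker ↔ ∃ w, M = trans w := by
  constructor
  · intro h
    obtain ⟨A, w, rfl⟩ := exists_mk M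
    rw [MonoidHom.mem_ker, proj_mk] at h
    exact ⟨Multiplicative.ofAdd w, by rw [h]; rfl⟩
  · rintro ⟨w, rfl⟩
    exact proj_mk 1 _

theorem trans_injective : Function.Injective (trans (F := F)) := fun v w h =>
  Multiplicative.toAdd.injective (mk_inj (show mk 1 v.toAdd = mk 1 w.toAdd from h)).2

theorem eq_one_of_conj_mem_upperUni {A : (Matrix.SpecialLinearGroup (Fin 2) F)} (hA : A ∈ H1.upperUni F) {w : (Matrix.SpecialLinearGroup (Fin 2) F)}
    (hw : (w : Matrix (Fin 2) (Fin 2) F) = !![0, -1; 1, 0]) (h : w⁻¹ * A * w ∈ H1.upperUni F) :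
    A = 1 := by
  obtain ⟨c, rfl⟩ := hA
  obtain ⟨d, hd⟩ := h
  have he : w * H1.upperUniHom F d = H1.upperUniHom F c * w := by rw [hd]; group
  have h00 := congrArg (fun X : (Matrix.SpecialLinearGroup (Fin 2) F) => (X : Matrix (Fin 2) (Fin 2) F) 0 0) he
  simp [H1.upperUniHom_val, hw, Matrix.mul_apply, Fin.sum_univ_two] at h00
  rw [show c = 1 from h00.symm ▸ rfl, map_one]

/-- `O_p` is the group of translations. -/
theorem pCore_eq [Fintype F] {p : ℕ} [Fact p.Prime] [CharP F p] :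
    Cfsg.pCore p ↥(Cfsg.qdOver F) = (proj (F := F)).ker := by
  haveI := H19.pCore_normal p ↥(Cfsg.qdOver F)
  refine le_antisymm ?_ (H19.le_pCore inferInstance ?_)
  · intro M hM
    have hsurj : Function.Surjective (proj (F := F)) := fun A => ⟨mk A 0, proj_mk A 0⟩
    let P : Subgroup (Matrix.SpecialLinearGroup (Fin 2) F) := (Cfsg.pCore p ↥(Cfsg.qdOver F)).map proj
    haveI hPn : P.Normal := Subgroup.Normal.map inferInstance _ hsurj
    have hPp : IsPGroup p P := (H19.pCore_isPGroup p).map _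
    have hPU : P ≤ H1.upperUni F := by
      rw [← H1.coe_sylowSL p]
      exact (H19.le_pCore hPn hPp).trans (H19.pCore_le_sylow _)
    let w : (Matrix.SpecialLinearGroup (Fin 2) F) := ⟨!![0, -1; 1, 0], by simp [Matrix.det_fin_two]⟩
    have hA : proj M ∈ P := ⟨M, hM, rfl⟩
    exact eq_one_of_conj_mem_upperUni (hPU hA) (w := w) rfl
      (hPU (by simpa using hPn.conj_mem _ hA w⁻¹))
  · intro x
    obtain ⟨w, hw⟩ := mem_ker_proj.1 x.2
    refine ⟨1, Subtype.ext ?_⟩
    rw [pow_one, SubmonoidClass.coe_pow, hw, ← map_pow]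
    have : w ^ p = 1 := by
      apply Multiplicative.toAdd.injective
      ext i
      simp [CharP.cast_eq_zero]
    rw [this, map_one]; rfl

end Cfsg.Agent.H72.QdOver
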