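import Cfsg.Agent.H83.Involves
import Mathlib

/-! Sections `S₄` versus `S₃` in the automizer of a 2-subgroup. -/

set_option autoImplicit false
open scoped commutatorElement Pointwise

namespace Cfsg.Agent.H72

open Cfsg.Agent

variable {G : Type*} [Group G]

/-- A homomorphism onto `S₃` maps a 3-element inverted by a 2-element nontrivially. -/
theorem exists_inverted_of_surjective {K : Type*} [Group K] [Finite K] (f : K →* Equiv.Perm (Fin 3))
    (hf : Function.Surjective f) :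
    ∃ (z t : K) (a i : ℕ), orderOf z = 3 ^ i ∧ f z ≠ 1 ∧ t * z * t⁻¹ = z⁻¹ ∧ t ^ 2 ^ a = 1 := by
  classical
  haveI : Fact (Nat.Prime 2) := ⟨Nat.prime_two⟩
  haveI : Fact (Nat.Prime 3) := ⟨Nat.prime_three⟩
  let N := (alternatingGroup (Fin 3)).comap f
  let X : Sylow 3 N := default
  -- a 2-element normalising a Sylow 3-subgroup, with odd image
  obtain ⟨t₁, ht₁N, ht₁⟩ : ∃ t₁ ∈ Subgroup.normalizer (((X : Subgroup N).map N.subtype : Subgroup K) : Set K),
      Equiv.Perm.sign (f t₁) = -1 := by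
    obtain ⟨k, hk⟩ := hf (Equiv.swap 0 1)
    have hmem : k ∈ Subgroup.normalizer (((X : Subgroup N).map N.subtype : Subgroup K) : Set K) ⊔ N := by
      rw [Sylow.normalizer_sup_eq_top X]; trivial
    rw [← SetLike.mem_coe, Subgroup.mul_normal, Set.mem_mul] at hmem
    obtain ⟨t, ht, n, hn', htn⟩ := hmem
    refine ⟨t, ht, ?_⟩
    have h1 : Equiv.Perm.sign (f k) = -1 := by rw [hk]; exact Equiv.Perm.sign_swap (by decide)
    have h2 : Equiv.Perm.sign (f n) = 1 := Equiv.Perm.mem_alternatingGroup.1 hn'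
    rwa [← htn, map_mul, map_mul, h2, mul_one] at h1
  obtain ⟨a, b, hb, hab⟩ := Nat.exists_eq_pow_mul_and_not_dvd (orderOf_pos t₁).ne' 2 (by norm_num)
  set t := t₁ ^ b with htdef
  have htN := (Subgroup.normalizer (((X : Subgroup N).map N.subtype : Subgroup K) : Set K)).pow_mem ht₁N b
  rw [← htdef] at htN
  have htord : t ^ 2 ^ a = 1 := by
    rw [htdef, ← pow_mul, mul_comm, ← hab, pow_orderOf_eq_one]
  have hodd : Odd b := Nat.odd_iff.2 (by omega)
  have hts : Equiv.Perm.sign (f t) = -1 := by rw [htdef, map_pow, map_pow, ht₁, hodd.neg_one_pow]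
  -- fixed points of `t ^ 2` map onto the alternating group
  set XK := ((X : Subgroup N).map N.subtype : Subgroup K) with hXK
  have hX3 : IsPGroup 3 XK := X.2.map _
  have ht2ord : IsPGroup 2 (Subgroup.zpowers (t ^ 2)) := by
    intro g
    obtain ⟨m, hm⟩ := Subgroup.mem_zpowers_iff.1 g.2
    refine ⟨a, Subtype.ext ?_⟩
    rw [SubmonoidClass.coe_pow, ← hm, ← zpow_natCast (((t ^ 2) ^ m)) (2 ^ a), ← zpow_mul, mul_comm,
      zpow_mul, zpow_natCast, ← pow_mul, mul_comm, pow_mul, htord, one_pow, one_zpow]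
    rfl
  have hsq : ∀ s : Equiv.Perm (Fin 3), Equiv.Perm.sign s = -1 → s * s = 1 := by decide
  have hft2 : f (t ^ 2) = 1 := by rw [map_pow, sq]; exact hsq _ hts
  have hY : ∃ u ∈ XK, f u ≠ 1 := by
    by_contra h
    push Not at h
    have h1 : (X : Subgroup N) ≤ (f.comp N.subtype).ker := fun u hu => h (u : K) ⟨u, hu, rfl⟩
    have h2 : 3 ∣ Nat.card (f.comp N.subtype).range := by
      have : (f.comp N.subtype).range = alternatingGroup (Fin 3) := by
        rw [MonoidHom.range_comp, N.range_subtype]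
        exact Subgroup.map_comap_eq_self_of_surjective hf _
      rw [this, nat_card_alternatingGroup, Nat.card_fin]
      decide
    rw [← Subgroup.index_ker] at h2
    exact X.not_dvd_index (h2.trans (Subgroup.index_dvd_of_le h1))
  obtain ⟨u, hu, hfu⟩ := hY
  have ht2N : Subgroup.zpowers (t ^ 2) ≤ Subgroup.normalizer (XK : Set K) :=
    Subgroup.zpowers_le.2 (Subgroup.pow_mem _ htN 2)
  have hcop : (Nat.card (Subgroup.zpowers (t ^ 2))).Coprime (Nat.card XK) :=
    IsPGroup.coprime_card_of_ne 2 3 (by norm_num) _ _ ht2ord hX3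
  obtain ⟨c, hc, hcu⟩ := H20.exists_fixed_mem_coset (N := XK ⊓ f.ker) hcop
    (Or.inl (H20.isSolvable_of_isPGroup ht2ord)) inf_le_left
    (H20.le_normalizer_inf ht2N (le_top.trans_eq (Subgroup.normalizer_eq_top (H := f.ker)).symm)) hu (fun g hg => by
      refine ⟨XK.mul_mem (XK.inv_mem hu) (H20.conj_mem_of_le_normalizer ht2N hg hu), ?_⟩
      have hg1 : f g = 1 := by
        obtain ⟨m, rfl⟩ := Subgroup.mem_zpowers_iff.1 hg
        rw [map_zpow, hft2, one_zpow]
      show _ ∈ f.ker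
      rw [MonoidHom.mem_ker, map_mul, map_mul, map_mul, map_inv, map_inv, hg1]
      group)
  have hfc : f c ≠ 1 := by
    intro h
    have := MonoidHom.mem_ker.1 hcu.2
    rw [map_mul, map_inv, h, mul_one, inv_eq_one] at this
    exact hfu this
  have hc2 : t ^ 2 * c = c * t ^ 2 :=
    Subgroup.mem_centralizer_iff.1 hc.2 _ (Subgroup.mem_zpowers _)
  -- the inverted 3-element
  set z := c * (t * c⁻¹ * t⁻¹) with hz
  have hzX : z ∈ XK := XK.mul_mem hc.1 ((Subgroup.mem_normalizer_iff.1 htN _).1 (XK.inv_mem hc.1))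
  have hztz : t * z * t⁻¹ = z⁻¹ := by
    calc t * z * t⁻¹ = t * c * t⁻¹ * (t ^ 2 * c⁻¹ * (t ^ 2)⁻¹) := by rw [hz]; group
      _ = t * c * t⁻¹ * c⁻¹ := by
          have e' : t ^ 2 * c⁻¹ * (t ^ 2)⁻¹ = c⁻¹ := by
            rw [(Commute.inv_right hc2).eq]; group
          rw [e']
      _ = z⁻¹ := by rw [hz]; group
  have hfz : f z ≠ 1 := by
    have key : ∀ s r : Equiv.Perm (Fin 3), Equiv.Perm.sign s = -1 → Equiv.Perm.sign r = 1 → r ≠ 1 →
        r * (s * r⁻¹ * s⁻¹) ≠ 1 := by decide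
    rw [hz, map_mul, map_mul, map_mul, map_inv, map_inv]
    refine key _ _ hts ?_ hfc
    have hcX : c ∈ XK := hc.1
    obtain ⟨⟨c', hc'⟩, -, hcc⟩ := hcX
    rw [← hcc]
    exact Equiv.Perm.mem_alternatingGroup.1 hc'
  obtain ⟨i, hi⟩ := (IsPGroup.iff_orderOf.1 hX3) ⟨z, hzX⟩
  rw [← Subgroup.orderOf_coe] at hi
  exact ⟨z, t, a, i, hi, hfz, hztz, htord⟩

/-- The action of `S₄` on the three double transpositions. -/
def fourThreeFun (g : Equiv.Perm (Fin 4)) (i : Fin 3) : Fin 3 :=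
  let d : Equiv.Perm (Fin 4) :=
    if i = 0 then Equiv.swap 0 1 * Equiv.swap 2 3
    else if i = 1 then Equiv.swap 0 2 * Equiv.swap 1 3 else Equiv.swap 0 3 * Equiv.swap 1 2
  let j := (g * d * g⁻¹) 0
  if j = 1 then 0 else if j = 2 then 1 else 2

set_option maxRecDepth 8000 in
/-- A surjection `S₄ → S₃` whose kernel is a self-centralizing four group. -/
theorem exists_four_to_three : ∃ π : Equiv.Perm (Fin 4) →* Equiv.Perm (Fin 3), Function.Surjective π ∧
    (∀ g, π g = 1 → g * g = 1) ∧ (∀ g, (∀ v, π v = 1 → g * v = v * g) → π g = 1) ∧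
    IsPGroup 2 π.ker := by
  classical
  have hmul : ∀ g h i, fourThreeFun (g * h) i = fourThreeFun g (fourThreeFun h i) := by decide
  have hone : ∀ i, fourThreeFun 1 i = i := by decide
  let toP : Equiv.Perm (Fin 4) → Equiv.Perm (Fin 3) := fun g =>
    ⟨fourThreeFun g, fourThreeFun g⁻¹, fun i => by rw [← hmul, inv_mul_cancel, hone],
      fun i => by rw [← hmul, mul_inv_cancel, hone]⟩
  let π : Equiv.Perm (Fin 4) →* Equiv.Perm (Fin 3) :=
    MonoidHom.mk' toP fun g h => Equiv.ext fun i => hmul g h i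
  have hsurj : ∀ s : Equiv.Perm (Fin 3), ∃ g, ∀ i, fourThreeFun g i = s i := by decide
  have hsq : ∀ g, (∀ i, fourThreeFun g i = i) → g * g = 1 := by decide
  let d₁ : Equiv.Perm (Fin 4) := Equiv.swap 0 1 * Equiv.swap 2 3
  let d₂ : Equiv.Perm (Fin 4) := Equiv.swap 0 2 * Equiv.swap 1 3
  have hd₁ : ∀ i, fourThreeFun d₁ i = i := by decide
  have hd₂ : ∀ i, fourThreeFun d₂ i = i := by decide
  have hself : ∀ g : Equiv.Perm (Fin 4), g * d₁ = d₁ * g → g * d₂ = d₂ * g →
      ∀ i, fourThreeFun g i = i := by decide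
  have hker : ∀ g, π g = 1 ↔ ∀ i, fourThreeFun g i = i := fun g => by
    rw [Equiv.ext_iff]; rfl
  refine ⟨π, fun s => ?_, fun g hg => hsq g ((hker g).1 hg), fun g hg => ?_, ?_⟩
  · obtain ⟨g, hg⟩ := hsurj s
    exact ⟨g, Equiv.ext hg⟩
  · exact (hker g).2 (hself g (hg _ ((hker _).2 hd₁)) (hg _ ((hker _).2 hd₂)))
  · intro g
    exact ⟨1, Subtype.ext (by rw [pow_one, SubmonoidClass.coe_pow, pow_two]; exact hsq _ ((hker _).1 g.2))⟩

end Cfsg.Agent.H72
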